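import Cfsg.Agent.H407.SmallY
set_option linter.all false

/-!
# The finite checks: orthogonal groups (helper407)
-/

set_option autoImplicit false
set_option maxRecDepth 1000000

namespace Cfsg.Agent.H407.Small

open Cfsg Cfsg.Agent.OrdDiv Cfsg.Agent.H436 Cfsg.Agent.H407.Engine Cfsg.Agent.H407.Fam Cfsg.Agent.H407.Exc
open Cfsg.Agent.H407.PList

theorem chkD6 : chk (P 6) (Q 6) [3, 4, 6] [17, 19] [] (inB wtS 4 1 (RS 6)) = true :=
  p4chkB (by decide +kernel)
theorem chkD7 : chk (P 7) (Q 7) [3, 4, 6] [17, 19] [] (inB wtS 4 1 (RS 7)) = true :=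
  p4chkB (by decide +kernel)
theorem chkD8 : chk (P 8) (Q 8) [3, 4, 6] [19, 41] [] (inB wtS 4 1 (RS 8)) = true :=
  p4chkB (by decide +kernel)
theorem chkD9 : chk (P 9) (Q 9) [3, 4, 6] [23, 41] [] (inB wtS 4 1 (RS 9)) = true :=
  p4chkB (by decide +kernel)
theorem chkD10 : chk (P 10) (Q 10) [3, 4, 6] [23, 61] [] (inB wtS 4 1 (RS 10)) = true :=
  p4chkB (by decide +kernel)
theorem chkD11 : chk (P 11) (Q 11) [3, 4, 5, 6, 7, 8, 10, 12, 14] [37] [] (inB wtS 8 1 (RS 11)) = true :=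
  p4chkB (by decide +kernel)
theorem chkD12 : chk (P 12) (Q 12) [3, 4, 5, 6, 7, 8, 9, 10, 12, 14, 16, 18] [37] [] (inB wtS 10 1 (RS 12)) = true :=
  p4chkB (by decide +kernel)
theorem chkD13 : chk (P 13) (Q 13) [3, 4, 5, 6, 7, 8, 9, 10, 12, 14, 16, 18] [37] [] (inB wtS 10 1 (RS 13)) = true :=
  p4chkB (by decide +kernel)
theorem chkD14 : chk (P 14) (Q 14) [3, 4, 5, 6, 7, 8, 9, 10, 12, 14, 16, 18] [37] [] (inB wtS 10 1 (RS 14)) = true :=
  p4chkB (by decide +kernel)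

/-- lower bound for the rank -/
def m0D (n : ℕ) : ℕ := if n ≤ 10 then 4 else if n = 11 then 8 else if n = 12 then 10 else 10

theorem smallD {n : ℕ} (h6 : 6 ≤ n) (h14 : n ≤ 14) {N p f m : ℕ} (hp : p.Prime) (hf : f ≠ 0)
    (hFD : FD N (p ^ f) wtS m 1) (hm : m0D n ≤ m) (hP : ∀ r, r.Prime → r ∣ N → r ∈ P n) (h5 : p ≠ 5)
    (hRS : ∀ r ∈ RS n, r ∣ N) : False := by
  have hRS' : ∀ r ∈ RS n, r.Prime ∧ r ≠ 2 ∧ r ∣ N := fun r hr => ⟨prime_RS hr, ne_two_RS (by omega) hr, hRS r hr⟩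
  interval_cases n
  · exact cl wtS_lt chkD6 (by decide) (by decide) (primes_of (by decide +kernel)) hp hf hFD hm hP (mem_Q h5) hRS'
  · exact cl wtS_lt chkD7 (by decide) (by decide) (primes_of (by decide +kernel)) hp hf hFD hm hP (mem_Q h5) hRS'
  · exact cl wtS_lt chkD8 (by decide) (by decide) (primes_of (by decide +kernel)) hp hf hFD hm hP (mem_Q h5) hRS'
  · exact cl wtS_lt chkD9 (by decide) (by decide) (primes_of (by decide +kernel)) hp hf hFD hm hP (mem_Q h5) hRS'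
  · exact cl wtS_lt chkD10 (by decide) (by decide) (primes_of (by decide +kernel)) hp hf hFD hm hP (mem_Q h5) hRS'
  · exact cl wtS_lt chkD11 (by decide) (by decide) (primes_of (by decide +kernel)) hp hf hFD hm hP (mem_Q h5) hRS'
  · exact cl wtS_lt chkD12 (by decide) (by decide) (primes_of (by decide +kernel)) hp hf hFD hm hP (mem_Q h5) hRS'
  · exact cl wtS_lt chkD13 (by decide) (by decide) (primes_of (by decide +kernel)) hp hf hFD hm hP (mem_Q h5) hRS'
  · exact cl wtS_lt chkD14 (by decide) (by decide) (primes_of (by decide +kernel)) hp hf hFD hm hP (mem_Q h5) hRS'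

end Cfsg.Agent.H407.Small
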