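import Cfsg.Agent.H407.SmallY
set_option linter.all false

/-!
# The finite checks: E8 and E7 (helper407)
-/

set_option autoImplicit false
set_option maxRecDepth 1000000

namespace Cfsg.Agent.H407.Small

open Cfsg Cfsg.Agent.OrdDiv Cfsg.Agent.H436 Cfsg.Agent.H407.Engine Cfsg.Agent.H407.Fam Cfsg.Agent.H407.Exc
open Cfsg.Agent.H407.PList

theorem chkXE8 : chk (P 18) (Q 18) LE8 [43, 53, 73, 97, 101, 127, 131, 157, 211, 271, 331] [] (inE LE8) = true :=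
  p4chk_ok (by decide +kernel)
theorem smallE8 {N p f : ℕ} (hp : p.Prime) (hf : f ≠ 0) (hFD : Inc N (p ^ f) LE8)
    (hP : ∀ r, r.Prime → r ∣ N → r ∈ P 18) (h5 : p ≠ 5) (hpN : p ∣ N) : (p, f) ∈ ([] : List (ℕ × ℕ)) :=
  exc chkXE8 (by decide) (by decide) (primes_of (by decide +kernel)) hp hf hFD hP
    (mem_Q h5 (hP p hp hpN))

theorem chkXE7 : chk (P 12) (Q 12) LE7 [37, 43, 61, 101, 109, 127, 181] [] (inE LE7) = true :=
  p4chk_ok (by decide +kernel)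
theorem smallE7 {N p f : ℕ} (hp : p.Prime) (hf : f ≠ 0) (hFD : Inc N (p ^ f) LE7)
    (hP : ∀ r, r.Prime → r ∣ N → r ∈ P 12) (h5 : p ≠ 5) (hpN : p ∣ N) : (p, f) ∈ ([] : List (ℕ × ℕ)) :=
  exc chkXE7 (by decide) (by decide) (primes_of (by decide +kernel)) hp hf hFD hP
    (mem_Q h5 (hP p hp hpN))

end Cfsg.Agent.H407.Small
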